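import Mathlib
import Cfsg.Agent.SmallSimple.DetKernel

/-!
# The determinant of an operator of order `q` whose proper powers have trace zero

* `det_of_trace_zero`: if `A ^ q = 1`, `trace (A ^ i) = 0` for `0 < i < q` and `dim V = q t` then
  `det A = ((-1) ^ (q + 1)) ^ t`.
* `combi`: the counting lemma for eigenvalue multiplicities.
-/

set_option autoImplicit false

open Finset Module

namespace Cfsg.Agent.H608.DetCyclic

/-- The product of the `q`-th roots of unity. -/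
theorem prod_nthRoots {q : ℕ} (hq : 0 < q) :
    ∏ ω ∈ Polynomial.nthRootsFinset q (1 : ℂ), ω = (-1) ^ (q + 1) := by
  have hprim : IsPrimitiveRoot (Complex.exp (2 * Real.pi * Complex.I / q)) q :=
    Complex.isPrimitiveRoot_exp q hq.ne'
  have h := Polynomial.X_pow_sub_one_eq_prod hq hprim
  have h1 := congrArg (Polynomial.eval 0) h
  rw [Polynomial.eval_prod] at h1
  simp only [Polynomial.eval_sub, Polynomial.eval_pow, Polynomial.eval_X, Polynomial.eval_one,
    Polynomial.eval_C, zero_sub] at h1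
  rw [zero_pow hq.ne', zero_sub, Finset.prod_neg, hprim.card_nthRootsFinset] at h1
  have h2 : ((-1 : ℂ) ^ q) * ((-1) ^ q) = 1 := by
    rw [← mul_pow]; norm_num
  calc ∏ ω ∈ Polynomial.nthRootsFinset q (1 : ℂ), ω
      = ((-1 : ℂ) ^ q) * (((-1 : ℂ) ^ q) * ∏ ω ∈ Polynomial.nthRootsFinset q (1 : ℂ), ω) := by
        rw [← mul_assoc, h2, one_mul]
    _ = (-1) ^ (q + 1) := by rw [← h1, pow_succ]

/-- The multiplicities are all equal if the power sums vanish. -/
theorem card_filter_eq {ι : Type*} [Fintype ι] (μ : ι → ℂ) {q t : ℕ} (hq : q ≠ 0)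
    (hμ : ∀ j, μ j ^ q = 1) (hc : Fintype.card ι = q * t)
    (h0 : ∀ i, 0 < i → i < q → ∑ j, μ j ^ i = 0) {ω : ℂ} (hω : ω ^ q = 1)
    [DecidableEq ℂ] : #{j | μ j = ω} = t := by
  have h := Cfsg.Agent.SmallSimple.DetKernel.wsum μ (fun _ => (1 : ℂ)) hq hμ hω
  have h1 : ∑ r ∈ range q, (ω⁻¹) ^ r * ∑ j, μ j ^ r * (1 : ℂ) = (q : ℂ) * t := by
    rw [Finset.sum_eq_single_of_mem 0 (Finset.mem_range.2 (Nat.pos_of_ne_zero hq))]
    · simp only [pow_zero, mul_one, Finset.sum_const, Finset.card_univ, nsmul_eq_mul, one_mul]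
      rw [hc]; push_cast; ring
    · intro r hr hr0
      have h2 : ∑ j, μ j ^ r * (1 : ℂ) = 0 := by
        rw [← h0 r (Nat.pos_of_ne_zero hr0) (Finset.mem_range.1 hr)]
        exact Finset.sum_congr rfl fun j _ => mul_one _
      rw [h2, mul_zero]
  rw [h1] at h
  have hq' : (q : ℂ) ≠ 0 := by exact_mod_cast hq
  have h2 := mul_left_cancel₀ hq' h
  rw [Finset.sum_const, nsmul_eq_mul, mul_one] at h2
  have h3 : ((Finset.univ.filter fun j => μ j = ω).card : ℂ) = (t : ℂ) := by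
    rw [← h2]
    congr 2
    ext j; simp
  exact_mod_cast h3

theorem det_of_trace_zero {V : Type*} [AddCommGroup V] [Module ℂ V] [FiniteDimensional ℂ V]
    (A : Module.End ℂ V) {q t : ℕ} (hq : q ≠ 0) (hA : A ^ q = 1)
    (h0 : ∀ i, 0 < i → i < q → LinearMap.trace ℂ V (A ^ i) = 0)
    (hd : finrank ℂ V = q * t) : LinearMap.det A = ((-1) ^ (q + 1)) ^ t := by
  classical
  obtain ⟨b, μ, h1, h2⟩ := Cfsg.Agent.Characters.GaloisBasic.exists_basis_eigenvectors A hq hA
  rw [Cfsg.Agent.SmallSimple.DetKernel.det_of_basis b μ A h1]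
  have hmaps : ∀ j ∈ (Finset.univ : Finset (Fin (finrank ℂ V))),
      μ j ∈ Polynomial.nthRootsFinset q (1 : ℂ) := by
    intro j _
    rw [Polynomial.mem_nthRootsFinset (Nat.pos_of_ne_zero hq)]
    exact h2 j
  rw [← Finset.prod_fiberwise_of_maps_to hmaps]
  have h3 : ∀ ω ∈ Polynomial.nthRootsFinset q (1 : ℂ),
      ∏ j ∈ Finset.univ.filter (fun j => μ j = ω), μ j = ω ^ t := by
    intro ω hω
    rw [Polynomial.mem_nthRootsFinset (Nat.pos_of_ne_zero hq)] at hω
    rw [Finset.prod_congr rfl (g := fun _ => ω) (fun j hj => (Finset.mem_filter.1 hj).2),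
      Finset.prod_const]
    congr 1
    refine card_filter_eq μ hq h2 ?_ ?_ hω
    · rw [Fintype.card_fin, hd]
    · intro i hi hiq
      rw [← Cfsg.Agent.Characters.GaloisBasic.trace_pow_of_basis A b μ h1 i]
      exact h0 i hi hiq
  rw [Finset.prod_congr rfl h3, Finset.prod_pow, prod_nthRoots (Nat.pos_of_ne_zero hq)]

/-- The counting lemma for eigenvalue multiplicities. -/
theorem combi {R : Type*} [DecidableEq R] (s : Finset R) (e : R) (he : e ∈ s) (a : R → ℕ)
    {p q : ℕ} (hp : 2 ≤ p) (hq : 2 ≤ q) (hs : s.card = p) (hsum : ∑ ω ∈ s, a ω = p - 1)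
    (hsq : p * ∑ ω ∈ s, a ω ^ 2 ≤ (p - 1) ^ 2 + p * q)
    (horb : ∀ ω ∈ s, ω ≠ e → ∃ O ⊆ s.erase e, O.card = q ∧ ∀ ω' ∈ O, a ω' = a ω) :
    a e = 0 := by
  -- `E = ∑ a (a - 1) ≤ q - 1`
  set E := ∑ ω ∈ s, a ω * (a ω - 1) with hE
  have hsqE : ∑ ω ∈ s, a ω ^ 2 = E + (p - 1) := by
    rw [hE, ← hsum, ← Finset.sum_add_distrib]
    refine Finset.sum_congr rfl fun ω _ => ?_
    rcases Nat.eq_zero_or_pos (a ω) with h | h
    · rw [h]; rfl
    · obtain ⟨k, hk⟩ := Nat.exists_eq_succ_of_ne_zero h.ne'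
      rw [hk]
      simp only [Nat.succ_eq_add_one, Nat.add_sub_cancel]
      ring
  have hEq : E ≤ q - 1 := by
    by_contra hcon
    have h1 : q ≤ E := by omega
    rw [hsqE] at hsq
    have h2 : p * q ≤ p * E := Nat.mul_le_mul_left p h1
    obtain ⟨k, rfl⟩ : ∃ k, p = k + 1 := ⟨p - 1, by omega⟩
    simp only [Nat.add_sub_cancel] at hsq
    nlinarith
  have hterm : ∀ T ⊆ s, ∑ ω ∈ T, a ω * (a ω - 1) ≤ E := fun T hT =>
    Finset.sum_le_sum_of_subset hT
  -- the multiplicities of the nontrivial characters are at most one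
  have hle1 : ∀ ω ∈ s, ω ≠ e → a ω ≤ 1 := by
    intro ω hω hωe
    by_contra hcon
    obtain ⟨O, hOs, hOc, hOa⟩ := horb ω hω hωe
    have h1 := hterm O (hOs.trans (Finset.erase_subset _ _))
    rw [Finset.sum_congr rfl fun ω' hω' => by rw [hOa ω' hω'], Finset.sum_const, hOc,
      smul_eq_mul] at h1
    have h2 : 2 ≤ a ω * (a ω - 1) := by
      have h3 : 2 ≤ a ω := by omega
      have h4 : 1 ≤ a ω - 1 := by omega
      calc 2 = 2 * 1 := rfl
        _ ≤ a ω * (a ω - 1) := Nat.mul_le_mul h3 h4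
    have h3 : q * 2 ≤ q * (a ω * (a ω - 1)) := Nat.mul_le_mul_left q h2
    omega
  by_contra hne
  have hpos : 1 ≤ a e := Nat.one_le_iff_ne_zero.2 hne
  -- the sum of `1 - a ω` over the nontrivial ones is `a e`
  have hcomp : ∑ ω ∈ s.erase e, (1 - a ω) = a e := by
    have h1 : ∑ ω ∈ s.erase e, (1 - a ω) + ∑ ω ∈ s.erase e, a ω = p - 1 := by
      rw [← Finset.sum_add_distrib, ← hs, ← Finset.card_erase_of_mem he]
      rw [Finset.card_eq_sum_ones]
      refine Finset.sum_congr rfl fun ω hω => ?_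
      have := hle1 ω (Finset.mem_of_mem_erase hω) (Finset.ne_of_mem_erase hω)
      omega
    have h2 : ∑ ω ∈ s.erase e, a ω + a e = p - 1 := by
      rw [← hsum]; exact Finset.sum_erase_add _ _ he
    omega
  obtain ⟨ω, hω, hω0⟩ : ∃ ω ∈ s.erase e, 1 - a ω ≠ 0 := by
    by_contra hcon
    push Not at hcon
    rw [Finset.sum_eq_zero hcon] at hcomp
    omega
  have haω : a ω = 0 := by omega
  obtain ⟨O, hOs, hOc, hOa⟩ := horb ω (Finset.mem_of_mem_erase hω) (Finset.ne_of_mem_erase hω)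
  have hqle : q ≤ a e := by
    rw [← hcomp, ← hOc, Finset.card_eq_sum_ones]
    calc ∑ _ω ∈ O, 1 = ∑ ω' ∈ O, (1 - a ω') :=
          Finset.sum_congr rfl fun ω' hω' => by rw [hOa ω' hω', haω]
      _ ≤ ∑ ω' ∈ s.erase e, (1 - a ω') := Finset.sum_le_sum_of_subset hOs
  have h1 := hterm {e} (Finset.singleton_subset_iff.2 he)
  rw [Finset.sum_singleton] at h1
  have h2 : q * (q - 1) ≤ a e * (a e - 1) := Nat.mul_le_mul hqle (Nat.sub_le_sub_right hqle 1)
  have h3 : 2 * (q - 1) ≤ q * (q - 1) := Nat.mul_le_mul_right _ hq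
  omega

end Cfsg.Agent.H608.DetCyclic
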