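import Mathlib
import Cfsg.Agent.H608.SelfCent
import Cfsg.Agent.H608.DetCyclic
import Cfsg.Agent.Blocks.CyclicGroup
import Cfsg.Agent.Characters.Core

/-!
# Irreducible characters of degree `p - 1` when an element of order `p` is self-centralizing

`x` of prime order `p` with `C_G(x) = ⟨x⟩`, `N = N_G(⟨x⟩)` of order `p q`, `q ≥ 2`, `χ` an irreducible
character of degree `p - 1`.  Then `⟨x⟩` has no nonzero fixed vector, `χ` vanishes on `N ∖ ⟨x⟩` and
an element of order `q` of `N` has determinant `((-1) ^ (q + 1)) ^ t`.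
-/

set_option autoImplicit false
set_option linter.unusedSectionVars false

open Finset Module Cfsg

namespace Cfsg.Agent.H608.DegPred

open Cfsg.Agent.H608.SelfCent Cfsg.Agent.Blocks.CyclicGroup

variable {G : Type*} [Group G] [Finite G] {p : ℕ} [hp : Fact p.Prime] {x : G}

section

variable (hx : orderOf x = p) (hC : Subgroup.centralizer ({x} : Set G) = Subgroup.zpowers x)
include hx hC

local notation "NN" => Subgroup.normalizer ((Subgroup.zpowers x : Subgroup G) : Set G)

/-- The sum of the squared absolute values over the nontrivial powers of `x`. -/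
theorem sum_sq_le {χ : G → ℂ} (hχ : IsIrrCharacter G χ) :
    ∑ m : ZMod p with m ≠ 0, ‖χ (u x m)‖ ^ 2 ≤ Nat.card NN := by
  classical
  have := Fintype.ofFinite G
  have hcl := Cfsg.Agent.Characters.Core.isIrr_isClassFunction hχ
  have hnorm : ∑ g : G, ‖χ g‖ ^ 2 = Nat.card G := by
    have h1 := Cfsg.Agent.Characters.Core.classInner_irr_self hχ
    rw [Cfsg.Agent.Characters.Core.classInner_def] at h1
    have h2 : ∑ g : G, χ g * (starRingEnd ℂ) (χ g) = ((∑ g : G, ‖χ g‖ ^ 2 : ℝ) : ℂ) := by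
      push_cast
      refine Finset.sum_congr rfl fun g _ => ?_
      rw [Complex.mul_conj, Complex.normSq_eq_norm_sq]
      push_cast; rfl
    rw [h2] at h1
    have h3 : (Nat.card G : ℂ) ≠ 0 := by exact_mod_cast Nat.card_pos.ne'
    have h4 : ((∑ g : G, ‖χ g‖ ^ 2 : ℝ) : ℂ) = (Nat.card G : ℂ) := by
      field_simp at h1
      exact h1
    exact_mod_cast h4
  -- the fibers of `(g, m) ↦ g x ^ m g⁻¹`
  let T : Finset (G × ZMod p) := Finset.univ.filter fun gm => gm.2 ≠ 0
  let φ : G × ZMod p → G := fun gm => gm.1 * u x gm.2 * gm.1⁻¹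
  have hfib : ∀ y : G, (T.filter fun gm => φ gm = y).card ≤ Nat.card NN := by
    intro y
    rcases (T.filter fun gm => φ gm = y).eq_empty_or_nonempty with h | ⟨gm₀, h₀⟩
    · rw [h]; simp
    · have hm : ∀ gm ∈ T.filter fun gm => φ gm = y, gm₀.1⁻¹ * gm.1 ∈ NN := by
        intro gm hgm
        rw [Finset.mem_filter, Finset.mem_filter] at hgm h₀
        have h1 : gm.1 * u x gm.2 * gm.1⁻¹ = gm₀.1 * u x gm₀.2 * gm₀.1⁻¹ := hgm.2.trans h₀.2.symm
        have h2 : (gm₀.1⁻¹ * gm.1) * u x gm.2 * (gm₀.1⁻¹ * gm.1)⁻¹ = u x gm₀.2 := by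
          calc (gm₀.1⁻¹ * gm.1) * u x gm.2 * (gm₀.1⁻¹ * gm.1)⁻¹
              = gm₀.1⁻¹ * (gm.1 * u x gm.2 * gm.1⁻¹) * gm₀.1 := by group
            _ = u x gm₀.2 := by rw [h1]; group
        obtain ⟨P, hP⟩ := exists_sylow hx hC
        have hPc := card_sylow hx hP
        have hmem : ∀ m : ZMod p, u x m ∈ P := by
          intro m
          change u x m ∈ (P : Subgroup G)
          rw [hP]; exact u_mem x m
        have := Cfsg.Agent.Blocks.CyclicClasses.mem_normalizer_of_conj P hPc (x := u x gm.2)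
          (g := gm₀.1⁻¹ * gm.1) (hmem _) (fun h => hgm.1.2 ((u_eq_one_iff hx).1 h))
          (by rw [h2]; exact hmem _)
        rwa [hP] at this
      have h1 : (T.filter fun gm => φ gm = y).card ≤
          (Finset.univ : Finset NN).card := by
        refine Finset.card_le_card_of_injOn
          (fun gm => if h : gm₀.1⁻¹ * gm.1 ∈ NN then (⟨gm₀.1⁻¹ * gm.1, h⟩ : NN) else 1)
          (fun _ _ => Finset.mem_coe.2 (Finset.mem_univ _)) ?_
        intro a ha b hb hab
        have ha' := hm a (Finset.mem_coe.1 ha)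
        have hb' := hm b (Finset.mem_coe.1 hb)
        simp only [ha', hb', dif_pos] at hab
        have h2 : a.1 = b.1 := mul_left_cancel (congrArg Subtype.val hab)
        rw [Finset.mem_coe, Finset.mem_filter] at ha hb
        have h3 : a.1 * u x a.2 * a.1⁻¹ = b.1 * u x b.2 * b.1⁻¹ := ha.2.trans hb.2.symm
        rw [h2] at h3
        have h4 := u_injective hx (mul_left_cancel (mul_right_cancel h3))
        exact Prod.ext h2 h4
      rw [Nat.card_eq_fintype_card]
      exact h1
  have key : ∑ gm ∈ T, ‖χ (φ gm)‖ ^ 2 = Nat.card G * ∑ m : ZMod p with m ≠ 0, ‖χ (u x m)‖ ^ 2 := by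
    have hT : T = (Finset.univ : Finset G) ×ˢ (Finset.univ.filter fun m : ZMod p => m ≠ 0) := by
      ext gm; simp [T]
    rw [hT, Finset.sum_product]
    have h1 : ∀ g : G, ∑ m ∈ Finset.univ.filter (fun m : ZMod p => m ≠ 0), ‖χ (φ (g, m))‖ ^ 2 =
        ∑ m : ZMod p with m ≠ 0, ‖χ (u x m)‖ ^ 2 := by
      intro g
      refine Finset.sum_congr rfl fun m _ => ?_
      change ‖χ (g * u x m * g⁻¹)‖ ^ 2 = _
      rw [hcl]
    rw [Finset.sum_congr rfl fun g _ => h1 g, Finset.sum_const, Finset.card_univ, nsmul_eq_mul,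
      Nat.card_eq_fintype_card]
  have key2 : ∑ gm ∈ T, ‖χ (φ gm)‖ ^ 2 ≤ Nat.card NN * ∑ g : G, ‖χ g‖ ^ 2 := by
    rw [← Finset.sum_fiberwise (s := T) (g := φ), Finset.mul_sum]
    refine Finset.sum_le_sum fun y _ => ?_
    rw [Finset.sum_congr rfl (g := fun _ => ‖χ y‖ ^ 2)
      (fun gm hgm => by rw [(Finset.mem_filter.1 hgm).2]), Finset.sum_const, nsmul_eq_mul]
    exact mul_le_mul_of_nonneg_right (by exact_mod_cast hfib y) (by positivity)
  rw [key, hnorm, mul_comm] at key2
  have hG : (0 : ℝ) < Nat.card G := by exact_mod_cast Nat.card_pos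
  exact le_of_mul_le_mul_right key2 hG

omit [Finite G] hC in
theorem sum_zmod {β : Type*} [AddCommMonoid β] (f : ℕ → β) :
    ∑ m : ZMod p, f m.val = ∑ r ∈ range p, f r := by
  have := hp.out.pos
  refine Finset.sum_bij (fun m _ => m.val) (fun m _ => Finset.mem_range.2 (ZMod.val_lt m))
    (fun a _ b _ h => ZMod.val_injective p h) (fun r hr => ?_) (fun _ _ => rfl)
  exact ⟨(r : ZMod p), Finset.mem_univ _, ZMod.val_cast_of_lt (Finset.mem_range.1 hr)⟩

omit [Finite G] hx hC in
theorem pow_val_mul {ω : ℂ} (hω : ω ^ p = 1) (a b : ZMod p) :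
    ω ^ (a * b).val = ω ^ (a.val * b.val) := by
  rw [ZMod.val_mul]
  conv_rhs => rw [← Nat.div_add_mod (a.val * b.val) p, pow_add, pow_mul, hω, one_pow, one_mul]

/-- `⟨x⟩` has no nonzero fixed vector in an irreducible representation of degree `p - 1` when
`|N| = p q` with `q ≥ 2`. -/
theorem eigen_ne_one {V : Type*} [AddCommGroup V] [Module ℂ V] [FiniteDimensional ℂ V]
    (ρ : Representation ℂ G V) (hρ : IsIrrCharacter G ρ.character)
    (hd : finrank ℂ V = p - 1) {q : ℕ} (hN : Nat.card NN = p * q) (hq : 2 ≤ q) :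
    ∃ (b : Basis (Fin (finrank ℂ V)) ℂ V) (α : Fin (finrank ℂ V) → ℂ),
      (∀ i, ρ x (b i) = α i • b i) ∧ (∀ i, α i ^ p = 1) ∧ ∀ i, α i ≠ 1 := by
  classical
  have hp0 : p ≠ 0 := hp.out.ne_zero
  have hp2 : 2 ≤ p := hp.out.two_le
  have hxp : (ρ x) ^ p = 1 := by
    rw [← map_pow, ← hx, pow_orderOf_eq_one, map_one]
  obtain ⟨b, α, h1, h2⟩ := Cfsg.Agent.Characters.GaloisBasic.exists_basis_eigenvectors (ρ x) hp0 hxp
  refine ⟨b, α, h1, h2, ?_⟩
  have hval : ∀ r : ℕ, ρ.character (x ^ r) = ∑ j, α j ^ r := by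
    intro r
    rw [← Cfsg.Agent.Characters.GaloisBasic.trace_pow_of_basis (ρ x) b α h1 r, ← map_pow]
    rfl
  have hvalu : ∀ m : ZMod p, ρ.character (u x m) = ∑ j, α j ^ m.val := fun m => hval _
  set s := Polynomial.nthRootsFinset p (1 : ℂ) with hs
  have hmem : ∀ ω : ℂ, ω ∈ s ↔ ω ^ p = 1 := fun ω =>
    Polynomial.mem_nthRootsFinset hp.out.pos 1
  let a : ℂ → ℕ := fun ω => #{j | α j = ω}
  -- Fourier inversion
  have hfour : ∀ ω : ℂ, ω ^ p = 1 → (p : ℂ) * a ω =
      ∑ m : ZMod p, (ω⁻¹) ^ m.val * ρ.character (u x m) := by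
    intro ω hω
    have h := Cfsg.Agent.SmallSimple.DetKernel.wsum α (fun _ => (1 : ℂ)) hp0 h2 hω
    have h3 : ∑ r ∈ range p, (ω⁻¹) ^ r * ∑ j, α j ^ r * (1 : ℂ) =
        ∑ m : ZMod p, (ω⁻¹) ^ m.val * ρ.character (u x m) := by
      rw [← sum_zmod hx (fun r => (ω⁻¹) ^ r * ∑ j, α j ^ r * (1 : ℂ))]
      refine Finset.sum_congr rfl fun m _ => ?_
      rw [hvalu]
      congr 1
      exact Finset.sum_congr rfl fun j _ => mul_one _
    rw [← h3, ← h]
    congr 1
    rw [Finset.sum_const, nsmul_eq_mul, mul_one]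
  -- invariance under fusion
  have hinv : ∀ h ∈ fuse x hx, ∀ ω : ℂ, ω ^ p = 1 → a (ω ^ ((h : (ZMod p)ˣ) : ZMod p).val) = a ω := by
    intro h hh ω hω
    have hωh : (ω ^ ((h : (ZMod p)ˣ) : ZMod p).val) ^ p = 1 := by
      rw [← pow_mul, mul_comm, pow_mul, hω, one_pow]
    have e1 := hfour _ hωh
    have e2 := hfour ω hω
    have e3 : ∑ m : ZMod p, ((ω ^ ((h : (ZMod p)ˣ) : ZMod p).val)⁻¹) ^ m.val *
        ρ.character (u x m) = ∑ m : ZMod p, (ω⁻¹) ^ m.val * ρ.character (u x m) := by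
      rw [← Equiv.sum_comp (Units.mulLeft h) (fun m : ZMod p => (ω⁻¹) ^ m.val *
        ρ.character (u x m))]
      refine Finset.sum_congr rfl fun m _ => ?_
      have hω' : (ω⁻¹) ^ p = 1 := by rw [inv_pow, hω, inv_one]
      rw [Units.mulLeft_apply, pow_val_mul hω', ← inv_pow, ← pow_mul]
      congr 1
      have h4 : IsConj (u x (1 : ZMod p)) (u x ((h : (ZMod p)ˣ) : ZMod p)) := by
        rw [u_one hx]; exact (mem_fuse hx).1 hh
      have h5 := isConj_u_mul hx h4 m
      rw [one_mul] at h5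
      obtain ⟨c, hc⟩ := isConj_iff.1 h5
      rw [← hc, Representation.char_conj]
    rw [e3, ← e2] at e1
    have h6 : (p : ℂ) ≠ 0 := by exact_mod_cast hp0
    exact_mod_cast mul_left_cancel₀ h6 e1
  have hprim : IsPrimitiveRoot (Complex.exp (2 * Real.pi * Complex.I / p)) p :=
    Complex.isPrimitiveRoot_exp p hp0
  have hscard : s.card = p := hprim.card_nthRootsFinset
  have hmaps : ∀ j ∈ (Finset.univ : Finset (Fin (finrank ℂ V))), α j ∈ s := fun j _ =>
    (hmem _).2 (h2 j)
  have hsum : ∑ ω ∈ s, a ω = p - 1 := by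
    rw [← hd, ← Fintype.card_fin (finrank ℂ V), ← Finset.card_univ,
      Finset.card_eq_sum_card_fiberwise (f := α) (t := s) (by exact fun j _ => hmaps j (mem_univ j))]
  have hvals : ∀ m : ZMod p, ρ.character (u x m) = ∑ ω ∈ s, (a ω : ℂ) * ω ^ m.val := by
    intro m
    rw [hvalu, ← Finset.sum_fiberwise_of_maps_to hmaps]
    refine Finset.sum_congr rfl fun ω _ => ?_
    rw [Finset.sum_congr rfl (g := fun _ => ω ^ m.val)
      (fun j hj => by rw [(Finset.mem_filter.1 hj).2]), Finset.sum_const, nsmul_eq_mul]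
  -- Parseval
  have hpars : ∑ m : ZMod p, ‖ρ.character (u x m)‖ ^ 2 = p * ∑ ω ∈ s, (a ω : ℝ) ^ 2 := by
    have hc : ((∑ m : ZMod p, ‖ρ.character (u x m)‖ ^ 2 : ℝ) : ℂ) =
        ((p * ∑ ω ∈ s, (a ω : ℝ) ^ 2 : ℝ) : ℂ) := by
      push_cast
      have h3 : ∀ m : ZMod p, ((‖ρ.character (u x m)‖ : ℂ)) ^ 2 = ∑ ω ∈ s, ∑ ω' ∈ s,
          ((a ω : ℂ) * (a ω' : ℂ)) * (ω * ω'⁻¹) ^ m.val := by
        intro m
        have h4 : ((‖ρ.character (u x m)‖ : ℂ)) ^ 2 =
            ρ.character (u x m) * (starRingEnd ℂ) (ρ.character (u x m)) := by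
          rw [Complex.mul_conj, Complex.normSq_eq_norm_sq]
          push_cast; rfl
        rw [h4, hvals, map_sum, Finset.sum_mul_sum]
        refine Finset.sum_congr rfl fun ω _ => Finset.sum_congr rfl fun ω' hω' => ?_
        have h5 : (starRingEnd ℂ) ω' = ω'⁻¹ := by
          have h6 : ‖ω'‖ = 1 := Complex.norm_eq_one_of_pow_eq_one ((hmem _).1 hω') hp0
          rw [Complex.inv_def, Complex.normSq_eq_norm_sq, h6]
          simp
        rw [map_mul, map_pow, h5, Complex.conj_natCast, mul_pow]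
        ring
      rw [Finset.sum_congr rfl fun m _ => h3 m, Finset.sum_comm, Finset.mul_sum]
      refine Finset.sum_congr rfl fun ω hω => ?_
      rw [Finset.sum_comm]
      have hω0 : ω ≠ 0 := by
        rintro rfl
        have := (hmem _).1 hω
        rw [zero_pow hp0] at this
        exact zero_ne_one this
      have h7 : ∀ ω' ∈ s, ∑ m : ZMod p, ((a ω : ℂ) * (a ω' : ℂ)) * (ω * ω'⁻¹) ^ m.val =
          if ω' = ω then (p : ℂ) * (a ω : ℂ) ^ 2 else 0 := by
        intro ω' hω'
        rw [← Finset.mul_sum, sum_zmod hx (fun r => (ω * ω'⁻¹) ^ r)]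
        split_ifs with h8
        · subst h8
          rw [mul_inv_cancel₀ hω0]
          simp only [one_pow, Finset.sum_const, Finset.card_range, nsmul_eq_mul, mul_one]
          ring
        · rw [Cfsg.Agent.SmallSimple.DetKernel.sum_pow_eq_zero (n := p), mul_zero]
          · rw [mul_pow, inv_pow, (hmem _).1 hω, (hmem _).1 hω']; simp
          · intro h9
            apply h8
            have h10 : ω' ≠ 0 := by
              rintro rfl
              have := (hmem _).1 hω'
              rw [zero_pow hp0] at this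
              exact zero_ne_one this
            field_simp at h9
            exact h9.symm
      rw [Finset.sum_congr rfl h7, Finset.sum_ite_eq' s ω, if_pos hω]
    exact_mod_cast hc
  have hsq : p * ∑ ω ∈ s, a ω ^ 2 ≤ (p - 1) ^ 2 + p * q := by
    have h3 := sum_sq_le hx hC hρ
    rw [hN] at h3
    have h4 : ∑ m : ZMod p, ‖ρ.character (u x m)‖ ^ 2 =
        ‖ρ.character (u x (0 : ZMod p))‖ ^ 2 +
          ∑ m : ZMod p with m ≠ 0, ‖ρ.character (u x m)‖ ^ 2 := by
      rw [← Finset.sum_filter_add_sum_filter_not Finset.univ (fun m : ZMod p => m = 0)]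
      congr 1
      rw [Finset.filter_eq', if_pos (Finset.mem_univ _), Finset.sum_singleton]
    have h5 : ρ.character (u x (0 : ZMod p)) = ((p - 1 : ℕ) : ℂ) := by
      rw [u_zero, Representation.char_one, hd]
    rw [h5, hpars] at h4
    have h6 : (p : ℝ) * ∑ ω ∈ s, (a ω : ℝ) ^ 2 ≤ ((p - 1 : ℕ) : ℝ) ^ 2 + (p : ℝ) * q := by
      rw [h4]
      have h7 : ‖(((p - 1 : ℕ) : ℂ))‖ ^ 2 = ((p - 1 : ℕ) : ℝ) ^ 2 := by
        rw [Complex.norm_natCast]
      rw [h7]
      have h8 : ((p * q : ℕ) : ℝ) = (p : ℝ) * q := by push_cast; ring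
      rw [← h8]
      linarith
    exact_mod_cast h6
  have hfuse : Nat.card (fuse x hx) = q := by
    rw [card_fuse hx _ rfl, centralizer_zpowers hx hC]
    have h3 := Subgroup.relIndex_mul_relIndex (⊥ : Subgroup G) (Subgroup.zpowers x) NN bot_le
      Subgroup.le_normalizer
    rw [Subgroup.relIndex_bot_left, Subgroup.relIndex_bot_left, Nat.card_zpowers, hx, hN] at h3
    exact Nat.eq_of_mul_eq_mul_left hp.out.pos h3
  have hfin : Fintype (fuse x hx) := Fintype.ofFinite _
  have ha0 := Cfsg.Agent.H608.DetCyclic.combi s 1 ((hmem 1).2 (one_pow p)) a hp2 hq hscard hsum hsq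
    (fun ω hω hω1 => by
      refine ⟨Finset.univ.image (fun h : fuse x hx => ω ^ (((h : (ZMod p)ˣ)) : ZMod p).val),
        ?_, ?_, ?_⟩
      · intro ω' hω'
        obtain ⟨h, -, rfl⟩ := Finset.mem_image.1 hω'
        rw [Finset.mem_erase, hmem]
        refine ⟨?_, ?_⟩
        · intro h3
          have h4 : orderOf ω = p := orderOf_eq_prime ((hmem _).1 hω) hω1
          have h5 := orderOf_dvd_of_pow_eq_one h3
          rw [h4] at h5
          have h6 := (ZMod.natCast_eq_zero_iff _ _).2 h5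
          rw [ZMod.natCast_zmod_val] at h6
          exact (h : (ZMod p)ˣ).ne_zero h6
        · rw [← pow_mul, mul_comm, pow_mul, (hmem _).1 hω, one_pow]
      · rw [Finset.card_image_of_injective, Finset.card_univ, ← Nat.card_eq_fintype_card, hfuse]
        intro h h' hh'
        have h4 : orderOf ω = p := orderOf_eq_prime ((hmem _).1 hω) hω1
        have h5 : IsPrimitiveRoot ω p := by rw [← h4]; exact IsPrimitiveRoot.orderOf ω
        exact Subtype.ext (Units.ext (ZMod.val_injective p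
          (h5.pow_inj (ZMod.val_lt _) (ZMod.val_lt _) hh')))
      · intro ω' hω'
        obtain ⟨h, -, rfl⟩ := Finset.mem_image.1 hω'
        exact hinv h h.2 ω ((hmem _).1 hω))
  intro i hi
  have h3 : i ∈ Finset.univ.filter (fun j => α j = 1) := by simp [hi]
  have h4 : (Finset.univ.filter (fun j => α j = 1)).card = 0 := ha0
  rw [Finset.card_eq_zero] at h4
  rw [h4] at h3
  exact absurd h3 (Finset.notMem_empty i)

/-- If `⟨x⟩` has no nonzero fixed vector then the character vanishes on `N ∖ ⟨x⟩`. -/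
theorem vanish {V : Type*} [AddCommGroup V] [Module ℂ V] [FiniteDimensional ℂ V]
    (ρ : Representation ℂ G V) {ι : Type*} (b : Basis ι ℂ V) (α : ι → ℂ)
    (h1 : ∀ i, ρ x (b i) = α i • b i) (h2 : ∀ i, α i ^ p = 1) (h3 : ∀ i, α i ≠ 1)
    {g : G} {h : ZMod p} (hg : g * x * g⁻¹ = u x h) (hh : h ≠ 1) :
    ρ.character g = 0 := by
  classical
  -- the sum of the `ρ (x ^ m)` vanishes
  have hT : ∑ m : ZMod p, ρ (u x m) = 0 := by
    refine b.ext fun i => ?_
    rw [LinearMap.sum_apply, LinearMap.zero_apply]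
    have h4 : ∀ m : ZMod p, ρ (u x m) (b i) = α i ^ m.val • b i := by
      intro m
      rw [u_eq, map_pow]
      exact Cfsg.Agent.Characters.GaloisBasic.pow_apply_of_basis (ρ x) b α h1 m.val i
    rw [Finset.sum_congr rfl fun m _ => h4 m, ← Finset.sum_smul,
      sum_zmod hx (fun r => α i ^ r),
      Cfsg.Agent.SmallSimple.DetKernel.sum_pow_eq_zero (h2 i) (h3 i), zero_smul]
  -- all the elements `x ^ m g` are conjugate to `g`
  have hgm : ∀ m : ZMod p, g * u x m * g⁻¹ = u x (m * h) := by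
    intro m
    calc g * u x m * g⁻¹ = (g * x * g⁻¹) ^ m.val := by rw [u_eq, conj_pow]
      _ = (u x h) ^ m.val := by rw [hg]
      _ = u x (m * h) := by rw [mul_comm, u_mul hx]
  have hconj : ∀ m : ZMod p, u x m * g * (u x m)⁻¹ = u x (m * (1 - h)) * g := by
    intro m
    have h5 : (u x m)⁻¹ = u x (-m) := by
      rw [inv_eq_iff_mul_eq_one, ← u_add hx, add_neg_cancel, u_zero]
    calc u x m * g * (u x m)⁻¹ = u x m * (g * u x (-m) * g⁻¹) * g := by rw [h5]; group
      _ = u x (m * (1 - h)) * g := by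
        rw [hgm, ← u_add hx]
        congr 2
        ring
  have h6 : ∑ m : ZMod p, ρ.character (u x m * g) = 0 := by
    have h7 : ∀ m : ZMod p, ρ.character (u x m * g) = LinearMap.trace ℂ V (ρ (u x m) * ρ g) := by
      intro m
      rw [← map_mul]
      rfl
    rw [Finset.sum_congr rfl fun m _ => h7 m, ← map_sum, ← Finset.sum_mul, hT, zero_mul, map_zero]
  have h8 : ∑ m : ZMod p, ρ.character (u x m * g) = ∑ _m : ZMod p, ρ.character g := by
    have hne : (1 - h) ≠ 0 := sub_ne_zero.2 (Ne.symm hh)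
    rw [← Equiv.sum_comp (Equiv.mulRight₀ (1 - h) hne) (fun m : ZMod p => ρ.character (u x m * g))]
    refine Finset.sum_congr rfl fun m _ => ?_
    rw [Equiv.mulRight₀_apply, ← hconj, Representation.char_conj]
  rw [h8, Finset.sum_const, Finset.card_univ, ZMod.card, nsmul_eq_mul] at h6
  exact (mul_eq_zero.1 h6).resolve_left (by exact_mod_cast hp.out.ne_zero)

/-- An element of order `q` of `N` of which no nontrivial power centralizes `x`. -/
theorem exists_generator {q : ℕ} (hN : Nat.card NN = p * q) (hq : 2 ≤ q) :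
    ∃ y : G, y ^ q = 1 ∧ ∀ i, 0 < i → i < q → ∃ h : ZMod p, h ≠ 1 ∧
      (y ^ i) * x * (y ^ i)⁻¹ = u x h := by
  have hfuse : Nat.card (fuse x hx) = q := by
    rw [card_fuse hx _ rfl, centralizer_zpowers hx hC]
    have h3 := Subgroup.relIndex_mul_relIndex (⊥ : Subgroup G) (Subgroup.zpowers x) NN bot_le
      Subgroup.le_normalizer
    rw [Subgroup.relIndex_bot_left, Subgroup.relIndex_bot_left, Nat.card_zpowers, hx, hN] at h3
    exact Nat.eq_of_mul_eq_mul_left hp.out.pos h3
  obtain ⟨h, hgen⟩ := IsCyclic.exists_generator (α := fuse x hx)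
  have hord : orderOf h = q := by
    rw [← hfuse]
    exact orderOf_eq_card_of_forall_mem_zpowers hgen
  obtain ⟨y, hy⟩ := isConj_iff.1 ((mem_fuse hx).1 h.2)
  set c : ZMod p := ((h : (ZMod p)ˣ) : ZMod p) with hc
  have hcpow : ∀ i : ℕ, c ^ i = 1 ↔ q ∣ i := by
    intro i
    rw [← hord, orderOf_dvd_iff_pow_eq_one]
    constructor
    · intro h'
      apply Subtype.ext
      apply Units.ext
      push_cast
      exact h'
    · intro h'
      have := congrArg (fun z : fuse x hx => (((z : (ZMod p)ˣ)) : ZMod p)) h'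
      simpa using this
  have hym : ∀ m : ZMod p, y * u x m * y⁻¹ = u x (m * c) := by
    intro m
    calc y * u x m * y⁻¹ = (y * x * y⁻¹) ^ m.val := by rw [u_eq, conj_pow]
      _ = (u x c) ^ m.val := by rw [hy]
      _ = u x (m * c) := by rw [mul_comm, u_mul hx]
  have hyi : ∀ i : ℕ, (y ^ i) * x * (y ^ i)⁻¹ = u x (c ^ i) := by
    intro i
    induction i with
    | zero => rw [pow_zero, pow_zero, u_one hx]; group
    | succ i ih =>
      calc y ^ (i + 1) * x * (y ^ (i + 1))⁻¹ = y * (y ^ i * x * (y ^ i)⁻¹) * y⁻¹ := by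
            rw [pow_succ']; group
        _ = u x (c ^ (i + 1)) := by rw [ih, hym, pow_succ]
  refine ⟨y, ?_, fun i hi hiq => ⟨c ^ i, ?_, hyi i⟩⟩
  · have h1 : y ^ q ∈ Subgroup.zpowers x := by
      rw [← hC, Subgroup.mem_centralizer_singleton_iff]
      have h2 := hyi q
      rw [(hcpow q).2 (dvd_refl q), u_one hx] at h2
      calc y ^ q * x = (y ^ q * x * (y ^ q)⁻¹) * y ^ q := by group
        _ = x * y ^ q := by rw [h2]
    obtain ⟨m, hm⟩ := exists_u_of_mem hx h1
    have h3 : u x (m * c) = u x m := by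
      rw [← hym, hm]
      group
    have h4 := u_injective hx h3
    have h5 : m * (c - 1) = 0 := by rw [mul_sub, h4, mul_one, sub_self]
    have h6 : c - 1 ≠ 0 := by
      intro h7
      have h8 : c ^ 1 = 1 := by rw [pow_one]; exact sub_eq_zero.1 h7
      have h9 := Nat.le_of_dvd one_pos ((hcpow 1).1 h8)
      omega
    rw [(mul_eq_zero.1 h5).resolve_right h6, u_zero] at hm
    exact hm.symm
  · intro h1
    exact absurd (Nat.le_of_dvd hi ((hcpow i).1 h1)) (not_le.2 hiq)

end

end Cfsg.Agent.H608.DegPred
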