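import Cfsg.Agent.S4475
import Cfsg.Agent.Characters.Core

/-!
# Irreducible characters with indicator `-1` have even degree
-/

set_option autoImplicit false

open Cfsg Cfsg.Agent.Characters

namespace Cfsg.Agent.H608.Indicator

/-- An irreducible character with indicator `-1` has even degree. -/
theorem even_of_indicator {G : Type*} [Group G] [Fintype G] {χ : G → ℂ} (hχ : IsIrrCharacter G χ)
    (hreal : ∀ g, (χ g).im = 0) (h : (Nat.card G : ℂ)⁻¹ * ∑ s : G, χ (s * s) = -1) {d : ℕ}
    (hd : χ 1 = d) : Even d := by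
  obtain ⟨n, ρ, hρ, rfl⟩ := hχ
  have hirr : ρ.IsIrreducible := hρ
  have hdn : d = n := by
    have h1 : ρ.character 1 = (Module.finrank ℂ (Fin n → ℂ) : ℂ) := Representation.char_one ρ
    rw [hd] at h1
    have h2 : d = Module.finrank ℂ (Fin n → ℂ) := by exact_mod_cast h1
    rw [h2, Module.finrank_fin_fun]
  rw [hdn]
  obtain ⟨⟨A, hA0, hA⟩, hT⟩ := Cfsg.Agent.S4475.result n ρ hirr hreal
  have hskew : A.transpose = -A := by
    have := hT A hA
    rw [h] at this
    simpa using this
  by_contra hodd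
  rw [Nat.not_even_iff_odd] at hodd
  have hdet : A.det = 0 := by
    have h1 : A.det = (-1 : ℂ) ^ n * A.det := by
      conv_lhs => rw [← Matrix.det_transpose, hskew, Matrix.det_neg, Fintype.card_fin]
    rw [hodd.neg_one_pow] at h1
    have : A.det + A.det = 0 := by
      nth_rewrite 1 [h1]; ring
    exact add_self_eq_zero.1 this
  obtain ⟨v, hv0, hv⟩ := Matrix.exists_mulVec_eq_zero_iff.2 hdet
  -- the kernel is invariant
  let K : Submodule ℂ (Fin n → ℂ) := LinearMap.ker (Matrix.toLin' A)
  have hinv : ∀ g : G, ∀ w ∈ K, ρ g w ∈ K := by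
    intro g w hw
    have hw' : A.mulVec w = 0 := by
      have : Matrix.toLin' A w = 0 := hw
      rwa [Matrix.toLin'_apply] at this
    have h1 := congrArg (fun B : Matrix (Fin n) (Fin n) ℂ => B.mulVec w) (hA g)
    simp only [hw'] at h1
    rw [← Matrix.mulVec_mulVec, ← Matrix.mulVec_mulVec] at h1
    have h2 : (LinearMap.toMatrix' (ρ g)).mulVec w = ρ g w := by
      rw [← Matrix.toLin'_apply, Matrix.toLin'_toMatrix']
    rw [h2] at h1
    have h3 : (LinearMap.toMatrix' (ρ g⁻¹)).transpose.mulVec
        ((LinearMap.toMatrix' (ρ g)).transpose.mulVec (A.mulVec (ρ g w))) = 0 := by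
      rw [h1, Matrix.mulVec_zero]
    rw [Matrix.mulVec_mulVec, ← Matrix.transpose_mul, ← LinearMap.toMatrix'_mul, ← map_mul,
      mul_inv_cancel, map_one, LinearMap.toMatrix'_one, Matrix.transpose_one,
      Matrix.one_mulVec] at h3
    show Matrix.toLin' A (ρ g w) = 0
    rw [Matrix.toLin'_apply, h3]
  let S : Subrepresentation ρ := ⟨K, fun g w hw => hinv g w hw⟩
  rcases hirr.eq_bot_or_eq_top S with h1 | h1
  · have h2 : K = ⊥ := congrArg Subrepresentation.toSubmodule h1
    apply hv0
    have h3 : v ∈ K := by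
      show Matrix.toLin' A v = 0
      rw [Matrix.toLin'_apply, hv]
    rw [h2] at h3
    exact (Submodule.mem_bot ℂ).1 h3
  · have h2 : K = ⊤ := congrArg Subrepresentation.toSubmodule h1
    apply hA0
    have h3 : Matrix.toLin' A = 0 := LinearMap.ker_eq_top.1 h2
    exact (LinearEquiv.map_eq_zero_iff Matrix.toLin').1 h3

end Cfsg.Agent.H608.Indicator
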