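import Cfsg.Agent.H608.BrauerFeit
import Cfsg.Agent.Characters.GaloisIrr
import Cfsg.Agent.S0928

/-!
# `p`-conjugate characters

* `uAct`: the action of `(ZMod |G|)ˣ` on the irreducible characters by power maps.
-/

set_option autoImplicit false

open Cfsg
open scoped ComplexConjugate

namespace Cfsg.Agent.H608.PConj

open Cfsg.Agent.Blocks.Local Cfsg.Agent.Blocks.Blau Cfsg.Agent.Characters Cfsg.Agent.H589.Tilde
open Cfsg.Agent.H608.BrauerFeit

variable {G : Type*} [Group G]

theorem pow_val_mul [Finite G] (g : G) (k l : ZMod (Nat.card G)) :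
    g ^ (k * l).val = (g ^ k.val) ^ l.val := by
  have : NeZero (Nat.card G) := ⟨Nat.card_pos.ne'⟩
  rw [← pow_mul, ZMod.val_mul, pow_mod_natCard]

theorem pow_val_one [Finite G] (g : G) : g ^ (1 : ZMod (Nat.card G)).val = g := by
  have : NeZero (Nat.card G) := ⟨Nat.card_pos.ne'⟩
  have h : ((1 : ℕ) : ZMod (Nat.card G)) = 1 := Nat.cast_one
  rw [← h, ZMod.val_natCast, pow_mod_natCard, pow_one]

/-- The action of the units modulo `|G|` on the irreducible characters. -/
@[instance_reducible] noncomputable def uAct [Finite G] : MulAction (ZMod (Nat.card G))ˣ (IrrCharacter G) where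
  smul k χ := ⟨fun g => (χ : G → ℂ) (g ^ (k : ZMod (Nat.card G)).val),
    GaloisIrr.isIrr_pow (ZMod.val_coe_unit_coprime k) χ.2⟩
  one_smul χ := by
    apply Subtype.ext
    funext g
    show (χ : G → ℂ) (g ^ ((1 : (ZMod (Nat.card G))ˣ) : ZMod (Nat.card G)).val) = (χ : G → ℂ) g
    rw [Units.val_one, pow_val_one]
  mul_smul k l χ := by
    apply Subtype.ext
    funext g
    show (χ : G → ℂ) (g ^ ((k * l : (ZMod (Nat.card G))ˣ) : ZMod (Nat.card G)).val) =
      (χ : G → ℂ) ((g ^ (k : ZMod (Nat.card G)).val) ^ (l : ZMod (Nat.card G)).val)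
    rw [Units.val_mul, pow_val_mul]

theorem uAct_apply [Finite G] (k : (ZMod (Nat.card G))ˣ) (χ : IrrCharacter G) (g : G) :
    ((uAct.toSMul.smul k χ : IrrCharacter G) : G → ℂ) g =
      (χ : G → ℂ) (g ^ (k : ZMod (Nat.card G)).val) := rfl

/-- The set of the characters `p`-conjugate to `χ`. -/
def pConj [Finite G] (p : ℕ) (χ : IrrCharacter G) : Set (IrrCharacter G) :=
  {ψ : IrrCharacter G | ∃ σ : ℂ ≃+* ℂ,
    σ (Complex.exp (2 * Real.pi * Complex.I /
      ((Nat.card G / p ^ (Nat.card G).factorization p) : ℕ))) =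
      Complex.exp (2 * Real.pi * Complex.I /
        ((Nat.card G / p ^ (Nat.card G).factorization p) : ℕ)) ∧
      (ψ : G → ℂ) = fun g => σ ((χ : G → ℂ) g)}

theorem compl_pos [Finite G] (p : ℕ) : 0 < Nat.card G / p ^ (Nat.card G).factorization p :=
  Nat.ordCompl_pos p Nat.card_pos.ne'

/-- A `p`-regular element has order dividing the `p'`-part. -/
theorem pow_compl_eq_one [Finite G] {p : ℕ} (hp : p.Prime) {x : G} (hx : ¬ p ∣ orderOf x) :
    x ^ (Nat.card G / p ^ (Nat.card G).factorization p) = 1 := by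
  rw [← orderOf_dvd_iff_pow_eq_one]
  have h1 : orderOf x ∣ p ^ (Nat.card G).factorization p *
      (Nat.card G / p ^ (Nat.card G).factorization p) := by
    rw [Nat.ordProj_mul_ordCompl_eq_self]
    exact orderOf_dvd_natCard x
  refine Nat.Coprime.dvd_of_dvd_mul_left ?_ h1
  exact Nat.Coprime.pow_right _ (Nat.Coprime.symm ((Nat.Prime.coprime_iff_not_dvd hp).2 hx))

theorem fix_of_fix_exp {m : ℕ} (hm : m ≠ 0) (σ : ℂ ≃+* ℂ)
    (h : σ (Complex.exp (2 * Real.pi * Complex.I / m)) =
      Complex.exp (2 * Real.pi * Complex.I / m)) (z : ℂ) (hz : z ^ m = 1) : σ z = z ^ 1 := by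
  have : NeZero m := ⟨hm⟩
  obtain ⟨i, -, rfl⟩ := (Complex.isPrimitiveRoot_exp m hm).eq_pow_of_pow_eq_one hz
  rw [map_pow, h, pow_one]

/-- `p`-conjugate characters agree on `p`-regular elements. -/
theorem apply_eq_of_mem_pConj [Finite G] {p : ℕ} (hp : p.Prime) {χ ψ : IrrCharacter G}
    (h : ψ ∈ pConj p χ) {x : G} (hx : ¬ p ∣ orderOf x) : (ψ : G → ℂ) x = (χ : G → ℂ) x := by
  obtain ⟨σ, h1, h2⟩ := h
  rw [h2]
  have h3 := GaloisBasic.map_apply (σ : ℂ →+* ℂ) (m := 1)
    (n := Nat.card G / p ^ (Nat.card G).factorization p)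
    (fun z hz => fix_of_fix_exp (compl_pos p).ne' σ h1 z hz) (Core.isIrr_isCharacter χ.2)
    (compl_pos p).ne' (pow_compl_eq_one hp hx)
  rw [pow_one] at h3
  exact h3

theorem tilde_eq_of_mem_pConj [Finite G] {p : ℕ} (hp : p.Prime) {χ ψ : IrrCharacter G}
    (h : ψ ∈ pConj p χ) : tilde p (ψ : G → ℂ) = tilde p (χ : G → ℂ) := by
  funext x
  rw [tilde_def, tilde_def]
  by_cases hx : p ∣ orderOf x
  · simp [hx]
  · simp [hx, apply_eq_of_mem_pConj hp h hx]

theorem coef_eq_of_mem_pConj [Fintype G] {p : ℕ} [hp : Fact p.Prime] {χ ψ : IrrCharacter G}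
    (h : ψ ∈ pConj p χ) (θ : IrrCharacter G) : coef p ψ θ = coef p χ θ := by
  have h1 := coef_spec p ψ θ
  have h2 := coef_spec p χ θ
  rw [tilde_eq_of_mem_pConj hp.out h, h2] at h1
  exact_mod_cast h1.symm

theorem coef_eq_self_of_mem_pConj [Fintype G] {p : ℕ} [hp : Fact p.Prime] {χ ψ : IrrCharacter G}
    (h : ψ ∈ pConj p χ) : coef p χ ψ = coef p χ χ := by
  rw [coef_comm, coef_eq_of_mem_pConj h]

theorem self_mem_pConj [Finite G] (p : ℕ) (χ : IrrCharacter G) : χ ∈ pConj p χ :=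
  ⟨RingEquiv.refl ℂ, rfl, rfl⟩

theorem coef_self_pos [Fintype G] {p : ℕ} [hp : Fact p.Prime] (χ : IrrCharacter G) :
    0 < coef p χ χ := by
  classical
  have := Core.finite_irr (G := G)
  have := Fintype.ofFinite (IrrCharacter G)
  have h1 := sum_coef_mul_coef p χ χ
  have h2 : 0 ≤ ∑ ψ : IrrCharacter G, coef p χ ψ * coef p ψ χ := by
    refine Finset.sum_nonneg fun ψ _ => ?_
    rw [coef_comm p ψ χ]
    exact mul_self_nonneg _
  have hpp : (0 : ℤ) < (p : ℤ) ^ (Nat.card G).factorization p := by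
    have := hp.out.pos
    positivity
  have h3 : 0 ≤ coef p χ χ := by
    rw [h1] at h2
    exact nonneg_of_mul_nonneg_right h2 hpp
  rcases h3.lt_or_eq with h | h
  · exact h
  exfalso
  rw [← h, mul_zero] at h1
  have h4 : ∀ ψ : IrrCharacter G, coef p χ ψ = 0 := by
    intro ψ
    have h5 := (Finset.sum_eq_zero_iff_of_nonneg (s := Finset.univ)
      (f := fun ψ : IrrCharacter G => coef p χ ψ * coef p ψ χ) (fun ψ _ => by
        show 0 ≤ coef p χ ψ * coef p ψ χ
        rw [coef_comm p ψ χ]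
        exact mul_self_nonneg _)).1 h1 ψ (Finset.mem_univ _)
    have h6 : coef p χ ψ * coef p χ ψ = 0 := by
      rw [← h5, coef_comm p ψ χ]
    exact mul_self_eq_zero.1 h6
  have h5 := tilde_eq_sum p χ
  have h6 := congrFun h5 1
  rw [tilde_def] at h6
  simp only [orderOf_one, Nat.dvd_one, hp.out.ne_one, if_false, Finset.sum_apply, Pi.smul_apply,
    smul_eq_mul, h4, Int.cast_zero, zero_mul, Finset.sum_const_zero] at h6
  rw [mul_eq_zero] at h6
  rcases h6 with h6 | h6
  · have : (p ^ (Nat.card G).factorization p : ℕ) ≠ 0 := (pow_pos hp.out.pos _).ne'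
    exact this (by exact_mod_cast h6)
  · rw [charDegree_spec (Core.isIrr_isCharacter χ.2)] at h6
    exact (charDegree_pos χ).ne' (by exact_mod_cast h6)

/-- The number of `p`-conjugates times the coefficient is at most `p^a`. -/
theorem card_mul_coef_le [Fintype G] {p : ℕ} [hp : Fact p.Prime] (χ : IrrCharacter G) :
    (Nat.card (pConj p χ) : ℤ) * coef p χ χ ≤ (p : ℤ) ^ (Nat.card G).factorization p := by
  classical
  have := Core.finite_irr (G := G)
  have := Fintype.ofFinite (IrrCharacter G)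
  have h1 := sum_coef_mul_coef p χ χ
  have h2 : ∑ ψ ∈ (Finset.univ.filter fun ψ : IrrCharacter G => ψ ∈ pConj p χ),
      coef p χ ψ * coef p ψ χ ≤ ∑ ψ : IrrCharacter G, coef p χ ψ * coef p ψ χ := by
    refine Finset.sum_le_univ_sum_of_nonneg fun ψ => ?_
    rw [coef_comm p ψ χ]
    exact mul_self_nonneg _
  have h3 : ∑ ψ ∈ (Finset.univ.filter fun ψ : IrrCharacter G => ψ ∈ pConj p χ),
      coef p χ ψ * coef p ψ χ = (Nat.card (pConj p χ) : ℤ) * (coef p χ χ * coef p χ χ) := by
    rw [Finset.sum_congr rfl (g := fun _ => coef p χ χ * coef p χ χ)]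
    · rw [Finset.sum_const, nsmul_eq_mul]
      congr 2
      rw [Nat.card_eq_fintype_card, Fintype.card_subtype]
    · intro ψ hψ
      have hψ' : ψ ∈ pConj p χ := by simpa using hψ
      rw [coef_comm p ψ χ, coef_eq_self_of_mem_pConj hψ']
  rw [h1, h3] at h2
  have h4 := coef_self_pos (p := p) χ
  by_contra hcon
  push Not at hcon
  nlinarith [mul_lt_mul_of_pos_right hcon h4]

/-- In the case of equality, the coefficients off the orbit vanish. -/
theorem coef_eq_zero_of_eq [Fintype G] {p : ℕ} [hp : Fact p.Prime] (χ : IrrCharacter G)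
    (heq : (Nat.card (pConj p χ) : ℤ) * coef p χ χ = (p : ℤ) ^ (Nat.card G).factorization p)
    {θ : IrrCharacter G} (hθ : θ ∉ pConj p χ) : coef p χ θ = 0 := by
  classical
  have := Core.finite_irr (G := G)
  have := Fintype.ofFinite (IrrCharacter G)
  have h1 := sum_coef_mul_coef p χ χ
  have h3 : ∑ ψ ∈ (Finset.univ.filter fun ψ : IrrCharacter G => ψ ∈ pConj p χ),
      coef p χ ψ * coef p ψ χ = (Nat.card (pConj p χ) : ℤ) * (coef p χ χ * coef p χ χ) := by
    rw [Finset.sum_congr rfl (g := fun _ => coef p χ χ * coef p χ χ)]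
    · rw [Finset.sum_const, nsmul_eq_mul]
      congr 2
      rw [Nat.card_eq_fintype_card, Fintype.card_subtype]
    · intro ψ hψ
      have hψ' : ψ ∈ pConj p χ := by simpa using hψ
      rw [coef_comm p ψ χ, coef_eq_self_of_mem_pConj hψ']
  rw [← Finset.sum_filter_add_sum_filter_not Finset.univ (fun ψ : IrrCharacter G => ψ ∈ pConj p χ),
    h3, ← heq] at h1
  have h5 : ∑ ψ ∈ (Finset.univ.filter fun ψ : IrrCharacter G => ¬ ψ ∈ pConj p χ),
      coef p χ ψ * coef p ψ χ = 0 := by
    linarith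
  have h6 := (Finset.sum_eq_zero_iff_of_nonneg (fun ψ _ => by
    rw [coef_comm p ψ χ]
    exact mul_self_nonneg _)).1 h5 θ (by simp [hθ])
  rw [coef_comm p θ χ] at h6
  exact mul_self_eq_zero.1 h6

/-- The subgroup of the units congruent to one modulo the `p'`-part. -/
noncomputable def U (G : Type*) [Group G] [Finite G] (p : ℕ) : Subgroup (ZMod (Nat.card G))ˣ :=
  (ZMod.unitsMap (Nat.ordCompl_dvd (Nat.card G) p)).ker

theorem mem_U_iff [Finite G] {p : ℕ} {k : (ZMod (Nat.card G))ˣ} :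
    k ∈ U G p ↔ ((k : ZMod (Nat.card G)).val : ZMod (Nat.card G / p ^ (Nat.card G).factorization p))
      = 1 := by
  have : NeZero (Nat.card G) := ⟨Nat.card_pos.ne'⟩
  rw [U, MonoidHom.mem_ker, Units.ext_iff, ZMod.unitsMap_val, Units.val_one, ZMod.natCast_val]

theorem exp_pow_of_modEq {m k : ℕ} (hm : m ≠ 0) (h : (k : ZMod m) = 1) :
    Complex.exp (2 * Real.pi * Complex.I / m) ^ k = Complex.exp (2 * Real.pi * Complex.I / m) := by
  have h1 := Complex.isPrimitiveRoot_exp m hm
  have h2 : k ≡ 1 [MOD m] := by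
    rw [← ZMod.natCast_eq_natCast_iff, h, Nat.cast_one]
  have h3 : k % m = 1 % m := h2
  generalize Complex.exp (2 * Real.pi * Complex.I / m) = z at h1 ⊢
  rw [← pow_mod_orderOf z k, ← h1.eq_orderOf, h3]
  conv_rhs => rw [← pow_one z, ← pow_mod_orderOf z 1, ← h1.eq_orderOf]

theorem modEq_of_exp_pow {m k : ℕ} (hm : m ≠ 0)
    (h : Complex.exp (2 * Real.pi * Complex.I / m) ^ k =
      Complex.exp (2 * Real.pi * Complex.I / m)) : (k : ZMod m) = 1 := by
  have h1 := Complex.isPrimitiveRoot_exp m hm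
  generalize Complex.exp (2 * Real.pi * Complex.I / m) = z at h1 h
  conv_rhs at h => rw [← pow_one z]
  rw [← pow_mod_orderOf z k, ← pow_mod_orderOf z 1, ← h1.eq_orderOf] at h
  have h2 := h1.pow_inj (Nat.mod_lt _ (Nat.pos_of_ne_zero hm)) (Nat.mod_lt _ (Nat.pos_of_ne_zero hm)) h
  have h3 : k ≡ 1 [MOD m] := h2
  rw [← ZMod.natCast_eq_natCast_iff] at h3
  rw [h3, Nat.cast_one]

theorem exp_pow_card [Finite G] (p : ℕ) : Complex.exp (2 * Real.pi * Complex.I /
    ((Nat.card G / p ^ (Nat.card G).factorization p) : ℕ)) ^ Nat.card G = 1 := by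
  have h1 := (Complex.isPrimitiveRoot_exp _ (compl_pos (G := G) p).ne').pow_eq_one
  generalize Complex.exp (2 * Real.pi * Complex.I /
    ((Nat.card G / p ^ (Nat.card G).factorization p) : ℕ)) = z at h1 ⊢
  obtain ⟨c, hc⟩ := Nat.ordCompl_dvd (Nat.card G) p
  rw [hc, pow_mul, h1, one_pow]

/-- The orbit. -/
theorem orbit_eq [Finite G] {p : ℕ} (χ : IrrCharacter G) :
    letI : MulAction (ZMod (Nat.card G))ˣ (IrrCharacter G) := uAct
    MulAction.orbit (U G p) χ = pConj p χ := by
  have : NeZero (Nat.card G) := ⟨Nat.card_pos.ne'⟩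
  let : MulAction (ZMod (Nat.card G))ˣ (IrrCharacter G) := uAct
  ext ψ
  constructor
  · rintro ⟨k, rfl⟩
    obtain ⟨σ, hσ⟩ := GaloisBasic.exists_ringEquiv_pow (Nat.card_pos (α := G)).ne'
      (ZMod.val_coe_unit_coprime (k : (ZMod (Nat.card G))ˣ))
    refine ⟨σ, ?_, ?_⟩
    · rw [hσ]
      · exact exp_pow_of_modEq (compl_pos p).ne' (mem_U_iff.1 k.2)
      · exact exp_pow_card p
    · funext g
      exact (GaloisBasic.map_apply_card σ hσ (Core.isIrr_isCharacter χ.2) g).symm
  · rintro ⟨σ, h1, h2⟩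
    obtain ⟨k, hk, hσ⟩ := GaloisBasic.exists_coprime_pow (σ : ℂ →+* ℂ) (Nat.card_pos (α := G)).ne'
    have hmem : ZMod.unitOfCoprime k hk ∈ U G p := by
      have h3 : (k : ZMod (Nat.card G / p ^ (Nat.card G).factorization p)) = 1 := by
        apply modEq_of_exp_pow (compl_pos p).ne'
        rw [← hσ]
        · exact h1
        · exact exp_pow_card p
      rw [U, MonoidHom.mem_ker, Units.ext_iff, ZMod.unitsMap_val, Units.val_one,
        ZMod.coe_unitOfCoprime, ZMod.cast_natCast (Nat.ordCompl_dvd (Nat.card G) p), h3]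
    refine ⟨⟨_, hmem⟩, ?_⟩
    apply Subtype.ext
    funext g
    show (χ : G → ℂ) (g ^ ((ZMod.unitOfCoprime k hk : (ZMod (Nat.card G))ˣ) :
      ZMod (Nat.card G)).val) = (ψ : G → ℂ) g
    rw [ZMod.coe_unitOfCoprime, ZMod.val_natCast, pow_mod_natCard, h2]
    exact (GaloisBasic.map_apply_card σ hσ (Core.isIrr_isCharacter χ.2) g).symm

/-- `k^r` fixes `χ` for `k ∈ U`. -/
theorem pow_card_fix [Finite G] {p : ℕ} (χ : IrrCharacter G) {k : (ZMod (Nat.card G))ˣ}
    (hk : k ∈ U G p) (g : G) :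
    (χ : G → ℂ) (g ^ ((k ^ Nat.card (pConj p χ) : (ZMod (Nat.card G))ˣ) :
      ZMod (Nat.card G)).val) = (χ : G → ℂ) g := by
  let : MulAction (ZMod (Nat.card G))ˣ (IrrCharacter G) := uAct
  have h1 : (MulAction.stabilizer (U G p) χ).index = Nat.card (pConj p χ) := by
    rw [MulAction.index_stabilizer, orbit_eq, ← Nat.card_coe_set_eq]
  have h2 := Subgroup.pow_index_mem (MulAction.stabilizer (U G p) χ) (⟨k, hk⟩ : U G p)
  rw [h1, MulAction.mem_stabilizer_iff] at h2
  have h3 := congrArg (fun ψ : IrrCharacter G => (ψ : G → ℂ) g) h2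
  exact h3

/-- If the number of `p`-conjugates is a power of `p`, then all `p`-conjugates agree at elements
of order `p`. -/
theorem apply_eq_of_card_eq_pow [Finite G] {p : ℕ} [hp : Fact p.Prime] {χ ψ : IrrCharacter G}
    {s : ℕ} (hs : Nat.card (pConj p χ) = p ^ s) (h : ψ ∈ pConj p χ) {g : G} (hg : orderOf g = p) :
    (ψ : G → ℂ) g = (χ : G → ℂ) g := by
  have : NeZero (Nat.card G) := ⟨Nat.card_pos.ne'⟩
  let : MulAction (ZMod (Nat.card G))ˣ (IrrCharacter G) := uAct
  rw [← orbit_eq] at h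
  obtain ⟨k, rfl⟩ := h
  show (χ : G → ℂ) (g ^ (((k : (ZMod (Nat.card G))ˣ)) : ZMod (Nat.card G)).val) = (χ : G → ℂ) g
  have h1 := pow_card_fix χ k.2 g
  rw [← h1, hs]
  refine congrArg (χ : G → ℂ) ?_
  rw [pow_eq_pow_iff_modEq, hg, ← ZMod.natCast_eq_natCast_iff]
  have hpG : p ∣ Nat.card G := by
    rw [← hg]; exact orderOf_dvd_natCard g
  have e : ∀ x : ZMod (Nat.card G), ((x.val : ℕ) : ZMod p) = ZMod.castHom hpG (ZMod p) x := by
    intro x
    rw [ZMod.natCast_val, ZMod.castHom_apply]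
  rw [e, e, Units.val_pow_eq_pow_val, map_pow, ZMod.pow_card_pow]

theorem factorization_le [Finite G] {p : ℕ} [hp : Fact p.Prime] (χ : IrrCharacter G) :
    (Nat.card (pConj p χ) * charDegree (χ : G → ℂ)).factorization p ≤
      (Nat.card G).factorization p ∧
    (p ^ (Nat.card G).factorization p ∣ Nat.card (pConj p χ) * charDegree (χ : G → ℂ) →
      (charDegree (χ : G → ℂ)).factorization p = (Nat.card G).factorization p) := by
  classical
  have := Fintype.ofFinite G
  have := Core.finite_irr (G := G)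
  have := Fintype.ofFinite (IrrCharacter G)
  have hp1 := hp.out.one_lt
  have hr0 : Nat.card (pConj p χ) ≠ 0 := by
    have : Nonempty (pConj p χ) := ⟨⟨χ, self_mem_pConj p χ⟩⟩
    exact Nat.card_pos.ne'
  have hd0 := (charDegree_pos χ).ne'
  set r := Nat.card (pConj p χ) with hr
  set b := (charDegree (χ : G → ℂ)).factorization p with hb
  set a := (Nat.card G).factorization p with ha
  obtain ⟨c, hc⟩ : ∃ c : ℕ, coef p χ χ = c :=
    ⟨(coef p χ χ).toNat, (Int.toNat_of_nonneg (coef_self_pos χ).le).symm⟩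
  have hc0 : 0 < c := by
    have := coef_self_pos (p := p) χ
    rw [hc] at this
    exact_mod_cast this
  have hbc : p ^ b ≤ c := by
    have := dvd_coef_left p χ χ
    rw [hc] at this
    exact Nat.le_of_dvd hc0 (by exact_mod_cast this)
  have hrc : r * c ≤ p ^ a := by
    have := card_mul_coef_le (p := p) χ
    rw [hc] at this
    exact_mod_cast this
  have hsr : p ^ (r.factorization p) ≤ r := Nat.ordProj_le p hr0
  have hfac : (r * charDegree (χ : G → ℂ)).factorization p = r.factorization p + b := by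
    rw [Nat.factorization_mul hr0 hd0]; rfl
  have hchain : p ^ (r.factorization p + b) ≤ p ^ a := by
    rw [pow_add]
    exact (Nat.mul_le_mul hsr hbc).trans hrc
  have hle : r.factorization p + b ≤ a := (Nat.pow_le_pow_iff_right hp1).1 hchain
  refine ⟨by rw [hfac]; exact hle, fun hdvd => ?_⟩
  have hge : a ≤ r.factorization p + b := by
    rw [← hfac]
    exact (hp.out.pow_dvd_iff_le_factorization (Nat.mul_ne_zero hr0 hd0)).1 hdvd
  have heq : a = r.factorization p + b := le_antisymm hge hle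
  have h1 : p ^ (r.factorization p) * p ^ b = r * c := by
    rw [← pow_add, ← heq]
    refine le_antisymm ?_ hrc
    rw [heq, pow_add]
    exact Nat.mul_le_mul hsr hbc
  have h2 : p ^ (r.factorization p) = r := by
    by_contra hne
    have h3 : p ^ (r.factorization p) < r := lt_of_le_of_ne hsr hne
    have h4 : p ^ (r.factorization p) * p ^ b < r * p ^ b :=
      Nat.mul_lt_mul_of_pos_right h3 (pow_pos hp.out.pos _)
    have h5 : r * p ^ b ≤ r * c := Nat.mul_le_mul_left _ hbc
    omega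
  have h3 : r * c = p ^ a := by
    rw [← h1, ← pow_add, ← heq]
  apply Cfsg.Agent.S0928.result p χ
  intro g hg
  have h4 := congrFun (tilde_eq_sum p χ) g
  rw [tilde_def] at h4
  simp only [hg, dvd_refl, if_true, Finset.sum_apply, Pi.smul_apply, smul_eq_mul] at h4
  have h5 : ∑ ψ : IrrCharacter G, (coef p χ ψ : ℂ) * (ψ : G → ℂ) g =
      ∑ ψ ∈ (Finset.univ.filter fun ψ : IrrCharacter G => ψ ∈ pConj p χ),
        (coef p χ ψ : ℂ) * (ψ : G → ℂ) g := by
    symm
    apply Finset.sum_subset (Finset.subset_univ _)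
    intro ψ _ hψ
    have hψ' : ψ ∉ pConj p χ := by simpa using hψ
    rw [coef_eq_zero_of_eq χ (by rw [hc]; exact_mod_cast h3) hψ', Int.cast_zero, zero_mul]
  rw [h5, Finset.sum_congr rfl (g := fun _ => (c : ℂ) * (χ : G → ℂ) g)] at h4
  · rw [Finset.sum_const, nsmul_eq_mul] at h4
    have h6 : (Finset.univ.filter fun ψ : IrrCharacter G => ψ ∈ pConj p χ).card = r := by
      rw [hr, Nat.card_eq_fintype_card, Fintype.card_subtype]
    rw [h6, ← mul_assoc] at h4
    have h7 : ((r : ℂ) * (c : ℂ)) ≠ 0 := by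
      exact_mod_cast (Nat.mul_pos (Nat.pos_of_ne_zero hr0) hc0).ne'
    exact (mul_eq_zero.1 h4.symm).resolve_left h7
  · intro ψ hψ
    have hψ' : ψ ∈ pConj p χ := by simpa using hψ
    rw [coef_eq_self_of_mem_pConj hψ', hc,
      apply_eq_of_card_eq_pow (s := r.factorization p) (by rw [h2]) hψ' hg]
    simp

end Cfsg.Agent.H608.PConj
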